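import Mathlib
import Cfsg.Agent.BpLieP.Big
import Cfsg.Agent.CpAut.RgdConj
import Cfsg.Agent.LieRecognition.ReeSplit
import Cfsg.Agent.ChevalleyStructure.Ree.Data
import Cfsg.Agent.S1073

/-!
# S1332: `²G₂(q)` in characteristic `3`

* `locChar` : the `3`-local subgroups of `²G₂(q)` have characteristic `3`;
* `bpS_ree` : `BpS 3 ²G₂(q)`, all automorphisms of order `3`.
-/

set_option autoImplicit false
set_option linter.unusedSectionVars false

namespace Cfsg.Agent.BpLieP.Ree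

open Subgroup Cfsg Cfsg.Agent.Lib Cfsg.Agent.LieRecognition.ReeAbs Cfsg.Agent.LieRecognition.ReeSylowThree
  Cfsg.Agent.LieRecognition.ReeSplit

universe u

variable {K : Type*} [Field K] {G : Type u} [Group G]
variable {m : ℕ} {U : K → K → K → G} {h : Kˣ → G} {n : G}

/-! ### The centre of `U` -/

theorem U_central (D : Data m U h n) (t u v w : K) : U t u v * U 0 0 w = U 0 0 w * U t u v := by
  rw [D.U_mul, D.U_mul, zero_pow_three_pow]
  congr 1 <;> ring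

theorem U_add (D : Data m U h n) (u v u' v' : K) : U 0 u v * U 0 u' v' = U 0 (u + u') (v + v') := by
  rw [D.U_mul, zero_pow_three_pow]
  congr 1 <;> ring

/-- `Z(U)` -/
def zSub (D : Data m U h n) : Subgroup G where
  carrier := {g | ∃ v, g = U 0 0 v}
  mul_mem' := by
    rintro _ _ ⟨v, rfl⟩ ⟨v', rfl⟩
    exact ⟨v + v', by rw [U_add D, add_zero]⟩
  one_mem' := ⟨0, D.U_zero.symm⟩
  inv_mem' := by
    rintro _ ⟨v, rfl⟩
    refine ⟨-v, ?_⟩
    rw [inv_eq_iff_mul_eq_one, U_add D, add_zero, add_neg_cancel, D.U_zero]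

/-- `Ω₁(U)` -/
def vSub (D : Data m U h n) : Subgroup G where
  carrier := {g | ∃ u v, g = U 0 u v}
  mul_mem' := by
    rintro _ _ ⟨u, v, rfl⟩ ⟨u', v', rfl⟩
    exact ⟨_, _, U_add D _ _ _ _⟩
  one_mem' := ⟨0, 0, D.U_zero.symm⟩
  inv_mem' := by
    rintro _ ⟨u, v, rfl⟩
    refine ⟨-u, -v, ?_⟩
    rw [inv_eq_iff_mul_eq_one, U_add D, add_neg_cancel, add_neg_cancel, D.U_zero]

theorem card_vSub [Fintype K] (D : Data m U h n) : Nat.card (vSub D) = (Fintype.card K) ^ 2 := by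
  let f : K × K → vSub D := fun x => ⟨U 0 x.1 x.2, x.1, x.2, rfl⟩
  have hf : Function.Bijective f := by
    constructor
    · rintro ⟨u, v⟩ ⟨u', v'⟩ he
      obtain ⟨-, rfl, rfl⟩ := U_injective D (congrArg Subtype.val he)
      rfl
    · rintro ⟨g, u, v, rfl⟩
      exact ⟨(u, v), rfl⟩
  rw [← Nat.card_congr (Equiv.ofBijective f hf), Nat.card_prod, Nat.card_eq_fintype_card]
  ring

theorem mem_vSub_iff [Fintype K] (hK : Fintype.card K = 3 ^ (2 * m + 1)) (D : Data m U h n) {x : G} :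
    x ∈ vSub D ↔ x ∈ uSub D ∧ x ^ 3 = 1 := by
  constructor
  · rintro ⟨u, v, rfl⟩
    refine ⟨⟨0, u, v, rfl⟩, ?_⟩
    rw [U_cube D hK, zero_pow_three_pow, mul_zero, neg_zero, D.U_zero]
  · rintro ⟨⟨t, u, v, rfl⟩, h1⟩
    rw [U_cube D hK, ← D.U_zero] at h1
    obtain ⟨-, -, h2⟩ := U_injective D h1
    rw [neg_eq_zero, ← pow_add] at h2
    obtain rfl := eq_zero_of_pow_eq_zero h2
    exact ⟨u, v, rfl⟩

theorem isPGroup_uSub [Fintype K] (hK : Fintype.card K = 3 ^ (2 * m + 1)) (D : Data m U h n) :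
    IsPGroup 3 ↥(uSub D) := IsPGroup.of_card (n := 3 * (2 * m + 1)) (by rw [card_uSub, hK, ← pow_mul, mul_comm])

theorem exists_sylow [Fintype K] [Finite G] (hK : Fintype.card K = 3 ^ (2 * m + 1)) (D : Data m U h n) :
    ∃ S : Sylow 3 G, (S : Subgroup G) = uSub D := by
  have : Fact (Nat.Prime 3) := ⟨Nat.prime_three⟩
  have hcardU : Nat.card (uSub D) = 3 ^ (3 * (2 * m + 1)) := by
    rw [card_uSub, hK, ← pow_mul, mul_comm]
  have hfac : (Nat.card G).factorization 3 = 3 * (2 * m + 1) := by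
    rw [card_eq D, hK]
    set q := 3 ^ (2 * m + 1) with hq
    have hq3 : 3 ∣ q := dvd_pow_self 3 (by omega)
    have hq0 : 0 < q := by positivity
    have h1 : ¬ 3 ∣ (q - 1) * (q ^ 3 + 1) := by
      rw [Nat.prime_three.dvd_mul]
      have h3 : 3 ∣ q ^ 3 := dvd_pow hq3 (by norm_num)
      rintro (h | h) <;> omega
    rw [mul_assoc, Nat.factorization_mul (by positivity) (by intro h0; rw [h0] at h1; exact h1 (dvd_zero 3)),
      Finsupp.add_apply, Nat.factorization_eq_zero_of_not_dvd h1, hq, ← pow_mul,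
      Nat.Prime.factorization_pow Nat.prime_three, Finsupp.single_apply, if_pos rfl, add_zero, mul_comm]
  exact ⟨Sylow.ofCard (uSub D) (by rw [hcardU, hfac]), rfl⟩

theorem exists_conj_of_sylow [Fintype K] [Finite G] (hK : Fintype.card K = 3 ^ (2 * m + 1)) (D : Data m U h n)
    (P : Sylow 3 G) : ∃ g : G, (P : Subgroup G) = (uSub D).map (MulAut.conj g).toMonoidHom := by
  have : Fact (Nat.Prime 3) := ⟨Nat.prime_three⟩
  obtain ⟨S, hS⟩ := exists_sylow hK D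
  obtain ⟨g, rfl⟩ := MulAction.exists_smul_eq G S P
  exact ⟨g, by rw [← hS]; rfl⟩

/-! ### The `3`-local subgroups -/

theorem conj_zSub (D : Data m U h n) {b : G} (hb : b ∈ bSub D) {z : G} (hz : z ∈ zSub D) :
    b * z * b⁻¹ ∈ zSub D := by
  obtain ⟨t, u, v, a, rfl⟩ := hb
  obtain ⟨w, rfl⟩ := hz
  refine ⟨(a : K) ^ (2 * 3 ^ (m + 1) + 3) * w, ?_⟩
  rw [mul_inv_eq_iff_eq_mul, mul_assoc, D.h_U, mul_zero, mul_zero, ← mul_assoc, U_central D, mul_assoc]

theorem mem_uSub_of_commute [Fintype K] (hK : Fintype.card K = 3 ^ (2 * m + 1)) (D : Data m U h n) {b : G}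
    (hb : b ∈ bSub D) (hc : b * U 0 0 1 = U 0 0 1 * b) : b ∈ uSub D := by
  obtain ⟨t, u, v, a, rfl⟩ := hb
  rw [mul_assoc, D.h_U, mul_zero, mul_zero, ← mul_assoc, U_central D, ← mul_assoc] at hc
  have h1 := mul_right_cancel (mul_right_cancel hc)
  obtain ⟨-, -, h2⟩ := U_injective D h1
  have h3 := eq_one_of_mul_eq' hK h2 one_ne_zero
  subst h3
  have h4 : h 1 = 1 := by
    have := D.h_mul 1 1
    rw [mul_one] at this
    exact (mul_eq_left.1 this.symm)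
  rw [h4, mul_one]
  exact ⟨t, u, v, rfl⟩

/-- **The `3`-local subgroups of `²G₂(q)` have characteristic `3`.** -/
theorem locChar [Fintype K] [Finite G] (hK : Fintype.card K = 3 ^ (2 * m + 1)) (D : Data m U h n) :
    Big.LocChar 3 G := by
  have : Fact (Nat.Prime 3) := ⟨Nat.prime_three⟩
  intro K₀ hp h1
  obtain ⟨k, hk, hk1⟩ : ∃ k ∈ K₀, k ≠ 1 := by
    by_contra hcon
    push Not at hcon
    exact h1 ((eq_bot_iff_forall _).2 hcon)
  obtain ⟨P, hP⟩ := hp.exists_le_sylow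
  obtain ⟨g, hg⟩ := exists_conj_of_sylow hK D P
  have hmemP : ∀ y ∈ K₀, g⁻¹ * y * g ∈ uSub D := by
    intro y hy
    have h2 : y ∈ (uSub D).map (MulAut.conj g).toMonoidHom := by
      rw [← hg]
      exact hP hy
    obtain ⟨z, hz, rfl⟩ := h2
    have h3 : g⁻¹ * (MulAut.conj g).toMonoidHom z * g = z := by
      show g⁻¹ * (g * z * g⁻¹) * g = z
      group
    rw [h3]
    exact hz
  obtain ⟨N, hNd⟩ : ∃ N : Subgroup G, N = normalizer (K₀ : Set G) := ⟨_, rfl⟩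
  rw [← hNd]
  -- the normaliser lies in a Borel subgroup
  have hN : ∀ y ∈ N, g⁻¹ * y * g ∈ bSub D := by
    intro y hy
    have h2 : y⁻¹ * k * y ∈ K₀ := by
      rw [hNd] at hy
      have := (mem_normalizer_iff.1 (inv_mem hy) k).1 hk
      rwa [inv_inv] at this
    refine mem_bSub_of_conj D (x := g⁻¹ * k * g) (y := g⁻¹ * (y⁻¹ * k * y) * g) (hmemP k hk) (hmemP _ h2) ?_ (by group)
    intro h3
    apply hk1
    have h4 : k = g * (g⁻¹ * k * g) * g⁻¹ := by group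
    rw [h4, h3]
    group
  -- the centre of the Sylow subgroup
  obtain ⟨Z, hZ⟩ : ∃ Z : Subgroup ↥N, Z = (zSub D).comap ((MulAut.conj g⁻¹).toMonoidHom.comp N.subtype) := ⟨_, rfl⟩
  have hmemZ : ∀ y : ↥N, y ∈ Z ↔ g⁻¹ * (y : G) * g ∈ zSub D := by
    intro y
    rw [hZ, mem_comap]
    show g⁻¹ * (y : G) * g⁻¹⁻¹ ∈ zSub D ↔ _
    rw [inv_inv]
  have hZn : Z.Normal := by
    refine ⟨fun z hz y => ?_⟩
    rw [hmemZ] at hz ⊢
    have h2 := conj_zSub D (hN y y.2) hz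
    have h3 : g⁻¹ * (y : G) * g * (g⁻¹ * (z : G) * g) * (g⁻¹ * (y : G) * g)⁻¹ = g⁻¹ * ((y * z * y⁻¹ : ↥N) : G) * g := by
      push_cast
      group
    rwa [h3] at h2
  have hpow : ∀ (c : ↥N) (j : ℕ), (g⁻¹ * (c : G) * g) ^ j = 1 → c ^ j = 1 := by
    intro c j hj
    have h2 : (MulAut.conj g⁻¹ (c : G)) ^ j = 1 := by
      rw [MulAut.conj_apply, inv_inv]
      exact hj
    rw [← map_pow] at h2
    apply Subtype.ext
    rw [SubmonoidClass.coe_pow]
    exact (MulAut.conj g⁻¹).injective (h2.trans (map_one _).symm)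
  have hZp : IsPGroup 3 ↥Z := by
    rintro ⟨z, hz⟩
    refine ⟨1, Subtype.ext ?_⟩
    obtain ⟨w, hw⟩ := (hmemZ z).1 hz
    rw [pow_one]
    refine hpow z 3 ?_
    rw [hw]
    exact U_zero_zero_cube D hK w
  have hO : Z ≤ pCore 3 ↥N := Cores.le_pCore hZn hZp
  have hmem : g * U 0 0 1 * g⁻¹ ∈ N := by
    have h2 : g * U 0 0 1 * g⁻¹ ∈ centralizer (K₀ : Set G) := by
      rw [mem_centralizer_iff]
      intro y hy
      obtain ⟨t, u, v, e⟩ := hmemP y hy
      have e' : y = g * U t u v * g⁻¹ := by rw [← e]; group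
      rw [e']
      calc g * U t u v * g⁻¹ * (g * U 0 0 1 * g⁻¹) = g * (U t u v * U 0 0 1) * g⁻¹ := by group
        _ = g * (U 0 0 1 * U t u v) * g⁻¹ := by rw [U_central D]
        _ = g * U 0 0 1 * g⁻¹ * (g * U t u v * g⁻¹) := by group
    rw [hNd]
    exact centralizer_le_normalizer _ h2
  have hC : ∀ c ∈ centralizer (pCore 3 ↥N : Set ↥N), g⁻¹ * (c : G) * g ∈ uSub D := by
    intro c hc
    apply mem_uSub_of_commute hK D (hN c c.2)
    have h2 : (⟨g * U 0 0 1 * g⁻¹, hmem⟩ : ↥N) ∈ Z := by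
      rw [hmemZ]
      refine ⟨1, ?_⟩
      show g⁻¹ * (g * U 0 0 1 * g⁻¹) * g = _
      group
    have h3 := (mem_centralizer_iff.1 hc) _ (hO h2)
    have h4 : g * U 0 0 1 * g⁻¹ * (c : G) = c * (g * U 0 0 1 * g⁻¹) := congrArg Subtype.val h3
    calc g⁻¹ * (c : G) * g * U 0 0 1 = g⁻¹ * (c * (g * U 0 0 1 * g⁻¹)) * g := by group
      _ = g⁻¹ * (g * U 0 0 1 * g⁻¹ * c) * g := by rw [h4]
      _ = U 0 0 1 * (g⁻¹ * c * g) := by group
  have hOn : (pCore 3 ↥N).Normal := Cores.pCore_normal 3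
  refine Cores.le_pCore inferInstance ?_
  rintro ⟨c, hc⟩
  obtain ⟨j, hj⟩ := isPGroup_uSub hK D ⟨_, hC c hc⟩
  refine ⟨j, Subtype.ext (hpow c _ ?_)⟩
  exact congrArg Subtype.val hj

/-! ### Automorphisms of order `3` -/

theorem good_fixed [Fintype K] [Finite G] [IsSimpleGroup G] (hm : 1 ≤ m) (hK : Fintype.card K = 3 ^ (2 * m + 1))
    (D : Data m U h n) (hc : ∃ a b : G, a * b ≠ b * a) {x : MulAut G} (hx : x ^ 3 = 1) :
    BpTab.Good 3 ↥(fixedSubgroup x) := by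
  have : Fact (Nat.Prime 3) := ⟨Nat.prime_three⟩
  obtain ⟨S, hS⟩ := CpAut.RgdConj.exists_fix_sylow (p := 3) (k := 1) (x := x) (by rwa [pow_one])
  obtain ⟨g, hg⟩ := exists_conj_of_sylow hK D S
  rw [hg] at hS
  have hα := CpAut.RgdConj.fix_conj_conj hS
  have hx' : ((MulAut.conj g)⁻¹ * x * MulAut.conj g) ^ 3 = 1 := by
    have h2 := CpAut.RgdCoh.pow_conj_eq_one (δ := (MulAut.conj g)⁻¹) hx
    rwa [inv_inv] at h2
  have h2 : pPrimeCore 3 ↥(fixedSubgroup ((MulAut.conj g)⁻¹ * x * MulAut.conj g)) = ⊥ := by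
    refine Big.core_of_big (KFacts.RgdLieCharP.center_eq_bot hc) (locChar hK D) hx' (vSub D) ?_ ?_ ?_ ?_
    · intro v hv
      rw [mem_vSub_iff hK D] at hv ⊢
      exact ⟨(hα v).2 hv.1, by rw [← map_pow, hv.2, map_one]⟩
    · rintro _ ⟨u, v, rfl⟩ _ ⟨u', v', rfl⟩
      rw [U_add D, U_add D, add_comm u, add_comm v]
    · intro a ha
      exact ((mem_vSub_iff hK D).1 ha).2
    · rw [card_vSub, hK, ← pow_mul]
      exact Nat.pow_lt_pow_right (by norm_num) (by omega)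
  have e := CpAut.Fix.fixedConj (MulAut.conj g) ((MulAut.conj g)⁻¹ * x * MulAut.conj g)
  have h3 : MulAut.conj g * ((MulAut.conj g)⁻¹ * x * MulAut.conj g) * (MulAut.conj g)⁻¹ = x := by group
  rw [h3] at e
  exact (BpTab.good_of_core h2).congr e

/-- **`²G₂(q)`** -/
theorem bpS_ree {X : Type*} [Group X] [Finite X] (h : Lie.IsoRee X) : BpTab.BpS 3 X := by
  have : Fact (Nat.Prime 3) := ⟨Nat.prime_three⟩
  obtain ⟨K, _, _, m, hm, hK, ⟨e⟩⟩ := h
  obtain ⟨hs, hnc⟩ := Cfsg.Agent.S1073.result (K := K) hm hK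
  obtain ⟨U, h, n, D⟩ := ChevalleyStructure.Ree.Data.exists_data (K := K) hK
  have hfin : Finite ↥(Lie.twistedG2 K (3 ^ m)) := finite D
  have hc : ∃ a b : ↥(Lie.twistedG2 K (3 ^ m)), a * b ≠ b * a := by
    by_contra hcon
    push Not at hcon
    exact hnc ⟨⟨hcon⟩⟩
  refine Base.bpS_congr e.symm ?_
  intro x hx
  exact good_fixed hm hK D hc (orderOf_dvd_iff_pow_eq_one.1 hx.dvd)

end Cfsg.Agent.BpLieP.Ree
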