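import Cfsg.Agent.BpLieP.Main
import Cfsg.Agent.BpLieP.Ree

/-!
# S1332: all simple groups of Lie type of odd characteristic `p`, all automorphisms of order `p`
-/

set_option autoImplicit false

namespace Cfsg.Agent.BpLieP.All

open Cfsg Cfsg.Agent.BpTab

/-- **The groups of Lie type in odd characteristic `p`.** -/
theorem bpS_of_lie {p : ℕ} (hp : p.Prime) (hp2 : p ≠ 2) {X : Type*} [Group X] [Finite X]
    (h : IsLieTypeChar p X) : BpS p X := by
  rcases h with h | h | h | h | h | h | h | h | h | h | h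
  · exact Main.bpS_of_lieFilt hp hp2 (Or.inl h)
  · exact Main.bpS_of_lieFilt hp hp2 (Or.inr (Or.inl h))
  · exact Main.bpS_of_lieFilt hp hp2 (Or.inr (Or.inr (Or.inl h)))
  · exact Main.bpS_of_lieFilt hp hp2 (Or.inr (Or.inr (Or.inr (Or.inl h))))
  · exact Main.bpS_of_lieFilt hp hp2 (Or.inr (Or.inr (Or.inr (Or.inr (Or.inl h)))))
  · exact Main.bpS_of_lieFilt hp hp2 (Or.inr (Or.inr (Or.inr (Or.inr (Or.inr (Or.inl h))))))
  · exact Main.bpS_of_lieFilt hp hp2 (Or.inr (Or.inr (Or.inr (Or.inr (Or.inr (Or.inr (Or.inl h)))))))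
  · exact Main.bpS_of_lieFilt hp hp2 (Or.inr (Or.inr (Or.inr (Or.inr (Or.inr (Or.inr (Or.inr h)))))))
  · exact absurd h.1 hp2
  · exact absurd h.1 hp2
  · obtain ⟨rfl, h⟩ := h
    exact Ree.bpS_ree h

end Cfsg.Agent.BpLieP.All
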